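import Cfsg.Agent.Lib.RankThreeRecog.Recognise

/-!
Recognition of a rank three group, with an arbitrary bound on the index of the model in the graph automorphisms.
-/

set_option autoImplicit false
set_option linter.style.haveILetI false

namespace CfsgLib.RankThreeRecog

open MulAction
open scoped Classical

universe u v v'

/-- A rank three group whose graph matches the one of a model group is isomorphic to it. -/
theorem nonempty_iso_of_edge_bound (C : ℕ) {N k l : ℕ} {W : Type v'} [Fintype W] [DecidableEq W]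
    (S : Subgroup (Equiv.Perm (Fin N))) (a₀ b₀ c₀ : Fin N) (G : Subgroup (Equiv.Perm W)) (a b c : W)
    (hS : Sub S a₀ b₀ c₀ N k l) (hG : Sub G a b c N k l)
    (φ : stabilizer S a₀ ≃* stabilizer G a)
    (ψ : Fin N ≃ W) (hψ : ∀ (s : stabilizer S a₀) (x : Fin N), ψ (s • x) = φ s • ψ x)
    (hedge : ∀ x y, Edge G a b (ψ x) (ψ y) ↔ Edge S a₀ b₀ x y)
    (hA : Nat.card ↥(stabilizer (relAut (Edge S a₀ b₀)) a₀) ≤ C * Nat.card (stabilizer S a₀))
    (hsize : ∀ m ∈ [1, 1 + k, 1 + l], ¬ (m ∣ N ∧ N ≤ C * m)) :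
    Nonempty (G ≃* S) := by
  set A := relAut (Edge S a₀ b₀) with hAdef
  let c' : Equiv.Perm W ≃* Equiv.Perm (Fin N) := ψ.symm.permCongrHom
  set G' : Subgroup (Equiv.Perm (Fin N)) := G.map c'.toMonoidHom with hG'
  have hc'apply : ∀ (g : Equiv.Perm W) (x : Fin N), c' g x = ψ.symm (g (ψ x)) := fun g x => by
    simp [c']
  have hSA : S ≤ A := fun s hs x y => by
    exact edge_smul (⟨s, hs⟩ : S)
  have hGA : G' ≤ A := by
    rintro _ ⟨g, hg, rfl⟩ x y
    rw [MulEquiv.coe_toMonoidHom, hc'apply, hc'apply, ← hedge x y, ← hedge, Equiv.apply_symm_apply,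
      Equiv.apply_symm_apply]
    exact edge_smul (⟨g, hg⟩ : G)
  have eG : G ≃* G' := c'.subgroupMap G
  have cardS : N * Nat.card (stabilizer S a₀) = Nat.card S := card_group hS
  have cardG : Nat.card G' = Nat.card S := by
    rw [← Nat.card_congr eG.toEquiv, ← card_group hG, ← cardS, Nat.card_congr φ.toEquiv]
  -- the common subgroup
  set D := G' ⊓ S with hD
  have hstabD : ∀ s : stabilizer S a₀, ((s : S) : Equiv.Perm (Fin N)) ∈ D := by
    intro s
    refine ⟨⟨((φ s : G) : Equiv.Perm W), (φ s : G).2, ?_⟩, (s : S).2⟩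
    refine Equiv.ext fun x => ?_
    rw [MulEquiv.coe_toMonoidHom, hc'apply]
    exact ψ.symm_apply_eq.2 (hψ s x).symm
  have hDS : D ≤ S := inf_le_right
  have hle : Nat.card S * Nat.card S ≤ Nat.card A * Nat.card D := by
    have := inf_relIndex_le hGA hSA
    rwa [cardG] at this
  have hAcard : Nat.card A ≤ N * (C * Nat.card (stabilizer S a₀)) := by
    rw [← ncard_orbit_mul_stab A a₀]
    refine Nat.mul_le_mul ?_ hA
    have := Set.ncard_le_ncard (Set.subset_univ (orbit A a₀))
    simpa [Set.ncard_univ] using this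
  have hhalf : Nat.card S ≤ C * Nat.card D := by
    have h1 : Nat.card S * Nat.card S ≤ Nat.card S * (C * Nat.card D) := by
      refine hle.trans (le_trans (Nat.mul_le_mul_right _ hAcard) (le_of_eq ?_))
      rw [← cardS]; ring
    exact Nat.le_of_mul_le_mul_left h1 Nat.card_pos
  -- the orbit of the base point
  have hsub : ∀ x y : Fin N, (∃ s : stabilizer S a₀, s • x = y) → x ∈ orbit D a₀ → y ∈ orbit D a₀ := by
    rintro x y ⟨s, rfl⟩ ⟨d, rfl⟩
    exact ⟨⟨((s : S) : Equiv.Perm (Fin N)), hstabD s⟩ * d, rfl⟩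
  have hst : Nat.card (stabilizer D a₀) = Nat.card (stabilizer S a₀) :=
    Nat.card_congr
      { toFun := fun s => ⟨⟨s.1.1, hDS s.1.2⟩, s.2⟩
        invFun := fun s => ⟨⟨(s : S), hstabD s⟩, s.2⟩
        left_inv := fun _ => rfl
        right_inv := fun _ => rfl }
  have hmD := ncard_orbit_mul_stab D a₀
  rw [hst] at hmD
  set m := (orbit D a₀).ncard with hm
  have hmdvd : m ∣ N := by
    have := Subgroup.card_dvd_of_le hDS
    rw [← hmD, ← cardS] at this
    exact Nat.dvd_of_mul_dvd_mul_right Nat.card_pos this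
  have hmhalf : N ≤ C * m := by
    refine Nat.le_of_mul_le_mul_right ?_ (Nat.card_pos (α := stabilizer S a₀))
    rw [cardS, Nat.mul_assoc, hmD]
    exact hhalf
  have hfull : m = N := by
    by_contra hne
    set Ob := orbit (stabilizer S a₀) b₀
    set Oc := orbit (stabilizer S a₀) c₀
    have hall : ∀ O ∈ [Ob, Oc], ∀ z, (O = orbit (stabilizer S a₀) z) →
        O ⊆ orbit D a₀ ∨ Disjoint O (orbit D a₀) := by
      intro O _ z hz
      by_cases hO : Disjoint O (orbit D a₀)
      · exact Or.inr hO
      · obtain ⟨x, hx, hxD⟩ := Set.not_disjoint_iff.1 hO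
        left
        intro y hy
        rw [hz] at hx hy
        rw [← orbit_eq_iff.2 hx] at hy
        exact hsub x y hy hxD
    have ha0 : a₀ ∈ orbit D a₀ := mem_orbit_self _
    have hcov : orbit D a₀ ⊆ insert a₀ (Ob ∪ Oc) := by
      intro x _
      rcases cover hS x with rfl | e | e
      · exact Or.inl rfl
      · exact Or.inr (Or.inl e)
      · exact Or.inr (Or.inr e)
    rcases hall Ob (by simp) b₀ rfl with hb1 | hb1 <;> rcases hall Oc (by simp) c₀ rfl with hc1 | hc1
    · apply hne
      have : orbit D a₀ = Set.univ := Set.eq_univ_of_forall fun x => by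
        rcases cover hS x with rfl | e | e
        · exact ha0
        · exact hb1 e
        · exact hc1 e
      rw [hm, this, Set.ncard_univ, hS.card]
    · have he : orbit D a₀ = insert a₀ Ob := by
        refine subset_antisymm (fun x hx => ?_) (Set.insert_subset ha0 hb1)
        rcases hcov hx with e | e | e
        · exact Or.inl e
        · exact Or.inr e
        · exact absurd hx (Set.disjoint_left.1 hc1 e)
      rw [he, Set.ncard_insert_of_notMem (not_mem_near hS), hS.near] at hm
      exact hsize (1 + k) (by simp) ⟨by rwa [show 1 + k = m by omega], by rwa [show 1 + k = m by omega]⟩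
    · have he : orbit D a₀ = insert a₀ Oc := by
        refine subset_antisymm (fun x hx => ?_) (Set.insert_subset ha0 hc1)
        rcases hcov hx with e | e | e
        · exact Or.inl e
        · exact absurd hx (Set.disjoint_left.1 hb1 e)
        · exact Or.inr e
      rw [he, Set.ncard_insert_of_notMem (not_mem_far hS), hS.far] at hm
      exact hsize (1 + l) (by simp) ⟨by rwa [show 1 + l = m by omega], by rwa [show 1 + l = m by omega]⟩
    · have he : orbit D a₀ = {a₀} := by
        refine subset_antisymm (fun x hx => ?_) (Set.singleton_subset_iff.2 ha0)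
        rcases hcov hx with e | e | e
        · exact e
        · exact absurd hx (Set.disjoint_left.1 hb1 e)
        · exact absurd hx (Set.disjoint_left.1 hc1 e)
      rw [he, Set.ncard_singleton] at hm
      exact hsize 1 (by simp) ⟨one_dvd _, by rwa [← hm]⟩
  have hDeq : D = S := Subgroup.eq_of_le_of_card_ge hDS (by rw [← hmD, hfull, cardS])
  have hG'eq : S = G' := Subgroup.eq_of_le_of_card_ge (hDeq ▸ inf_le_left) (by rw [cardG])
  exact ⟨eG.trans (MulEquiv.subgroupCongr hG'eq.symm)⟩


/-- A rank three group whose suborbit actions match those of a model group is isomorphic to it. -/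
theorem nonempty_iso_bound (C : ℕ) {N k l : ℕ} {W : Type v'} [Fintype W] [DecidableEq W]
    (S : Subgroup (Equiv.Perm (Fin N))) (a₀ b₀ c₀ : Fin N) (G : Subgroup (Equiv.Perm W)) (a b c : W)
    (hS : Sub S a₀ b₀ c₀ N k l) (hG : Sub G a b c N k l)
    (φ : stabilizer S a₀ ≃* stabilizer G a)
    (hb : ∀ s : stabilizer S a₀, φ s • b = b ↔ s • b₀ = b₀)
    (hc : ∀ s : stabilizer S a₀, φ s • c = c ↔ s • c₀ = c₀)
    (hF : Forced S a₀ b₀ c₀ k l)
    (hA : Nat.card ↥(stabilizer (relAut (Edge S a₀ b₀)) a₀) ≤ C * Nat.card (stabilizer S a₀))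
    (hsize : ∀ m ∈ [1, 1 + k, 1 + l], ¬ (m ∣ N ∧ N ≤ C * m)) :
    Nonempty (G ≃* S) := by
  obtain ⟨ψ, ha, hb', hc', hψ⟩ := exists_map φ hS hG hb hc
  exact nonempty_iso_of_edge_bound C S a₀ b₀ c₀ G a b c hS hG φ ψ hψ (edge_iff φ hF hS hG ψ ha hb' hc' hψ) hA hsize

end CfsgLib.RankThreeRecog
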