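import Cfsg.Agent.Lib.RankThreeRecog.Words

/-!
A certificate bounding the automorphisms of a relation which fix a point: candidates for a base are
counted by adjacency signatures to fixed points, and points with unique signature are fixed.
-/

set_option autoImplicit false
set_option linter.style.haveILetI false

namespace CfsgLib.RankThreeRecog

open MulAction

/-- The signature of a point; fixed points get signature zero. -/
noncomputable def key (rows : List (ℕ × ℕ)) (m i : ℕ) : ℕ :=
  bif Nat.testBit m i then 0
  else (List.rec (fun acc => acc)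
    (fun r _ ih acc => ih (bif Nat.testBit r.2 i then 2 * acc + 1 else 2 * acc)) rows : ℕ → ℕ) 1

/-- A packed table. -/
noncomputable def unpack (bits lit u : ℕ) : ℕ :=
  Nat.land (Nat.shiftRight lit (bits * u)) (2 ^ bits - 1)

/-- A step of the certificate. -/
inductive Step where
  /-- a new base point with at most `n` candidates -/
  | pick (rows : List (ℕ × ℕ)) (v n : ℕ)
  /-- points with unique signature, with an ordering of all points by signature -/
  | batch (rows : List (ℕ × ℕ)) (order pos new : ℕ)

/-- Whether the rows belong to fixed points. -/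
noncomputable def rowsFixed (rows : List (ℕ × ℕ)) (m : ℕ) : Bool := rows.all fun r => Nat.testBit m r.1

/-- The check of a single batch. -/
noncomputable def batchOK (N bits : ℕ) (rows : List (ℕ × ℕ)) (m order pos new : ℕ) : Bool :=
  ((List.range N).all fun i => decide (unpack bits pos i < N) &&
      Nat.beq (unpack bits order (unpack bits pos i)) i) &&
  ((List.range (N - 1)).all fun j =>
      decide (key rows m (unpack bits order j) ≤ key rows m (unpack bits order (j + 1)))) &&
  ((List.range N).all fun v => !(Nat.testBit new v) || Nat.testBit m v ||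
    ((Nat.beq (unpack bits pos v) 0 ||
        decide (key rows m (unpack bits order (unpack bits pos v - 1)) < key rows m v)) &&
      (Nat.beq (unpack bits pos v + 1) N ||
        decide (key rows m v < key rows m (unpack bits order (unpack bits pos v + 1))))))

/-- The whole check: the final fixed set is everything. -/
noncomputable def rigidOK (N bits : ℕ) : List Step → ℕ → Bool :=
  fun ss => List.rec (fun m => (List.range N).all fun i => Nat.testBit m i)
    (fun s _ ih m => match s with
      | .pick rows v n => rowsFixed rows m && decide (v < N) &&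
          decide ((List.range N).countP (fun i => Nat.beq (key rows m i) (key rows m v)) ≤ n) &&
          ih (Nat.lor m (Nat.shiftLeft 1 v))
      | .batch rows order pos new => rowsFixed rows m && batchOK N bits rows m order pos new &&
          ih (Nat.lor m new)) ss

/-- The bound certified. -/
def rigidBound : List Step → ℕ
  | [] => 1
  | .pick _ _ n :: ss => n * rigidBound ss
  | .batch .. :: ss => rigidBound ss

/-- The base of the certificate. -/
def rigidBase : List Step → List ℕ
  | [] => []
  | .pick _ v _ :: ss => v :: rigidBase ss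
  | .batch .. :: ss => rigidBase ss

/-- The rows used. -/
def rigidRows : List Step → List (ℕ × ℕ)
  | [] => []
  | .pick rows _ _ :: ss => rows ++ rigidRows ss
  | .batch rows .. :: ss => rows ++ rigidRows ss

variable {N : ℕ} (E : Fin N → Fin N → Prop) (A : Subgroup (Equiv.Perm (Fin N)))

/-- The elements of `A` fixing the points of a mask. -/
def fixer (m : ℕ) : Subgroup (Equiv.Perm (Fin N)) where
  carrier := {g | g ∈ A ∧ ∀ x : Fin N, Nat.testBit m x = true → g x = x}
  one_mem' := ⟨one_mem A, fun _ _ => rfl⟩
  mul_mem' := fun {g h} hg hh => ⟨mul_mem hg.1 hh.1, fun x hx => by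
    rw [Equiv.Perm.mul_apply, hh.2 x hx, hg.2 x hx]⟩
  inv_mem' := fun {g} hg => ⟨inv_mem hg.1, fun x hx => by
    conv_lhs => rw [← hg.2 x hx]
    rw [Equiv.Perm.inv_def, Equiv.symm_apply_apply]⟩

/-- The rows describe the relation. -/
def RowsSpec (rows : List (ℕ × ℕ)) : Prop :=
  ∀ r ∈ rows, ∃ f : Fin N, (f : ℕ) = r.1 ∧ ∀ i : Fin N, Nat.testBit r.2 i = true ↔ E f i

variable {E A}

theorem key_invariant (hA : ∀ g ∈ A, ∀ x y, E (g x) (g y) ↔ E x y) {rows : List (ℕ × ℕ)} {m : ℕ}
    (hr : RowsSpec E rows) (hf : rowsFixed rows m = true) {g : Equiv.Perm (Fin N)} (hg : g ∈ fixer A m)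
    (i : Fin N) : key rows m (g i) = key rows m i := by
  have hbit : Nat.testBit m (g i) = Nat.testBit m i := by
    rcases hb : Nat.testBit m i with _ | _
    · rcases hc : Nat.testBit m (g i) with _ | _
      · rfl
      · have := hg.2 (g i) hc
        rw [g.injective this, hb] at hc
        exact absurd hc (by simp)
    · rw [hg.2 i hb, hb]
  rw [rowsFixed, List.all_eq_true] at hf
  unfold key
  rw [hbit]
  congr 1
  suffices h : ∀ l : List (ℕ × ℕ), (∀ r ∈ l, r ∈ rows) → ∀ acc,
      (List.rec (fun acc => acc)
        (fun r _ ih acc => ih (bif Nat.testBit r.2 (g i) then 2 * acc + 1 else 2 * acc)) l : ℕ → ℕ) acc =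
      (List.rec (fun acc => acc)
        (fun r _ ih acc => ih (bif Nat.testBit r.2 i then 2 * acc + 1 else 2 * acc)) l : ℕ → ℕ) acc from
    h rows (fun _ h => h) 1
  intro l
  induction l with
  | nil => intro _ _; rfl
  | cons r l ih =>
    intro hl acc
    have hr' := hl r (List.mem_cons_self ..)
    obtain ⟨f, hf', hE⟩ := hr r hr'
    have hfix : g f = f := hg.2 f (by rw [hf']; exact hf r hr')
    have e : Nat.testBit r.2 (g i) = Nat.testBit r.2 i := by
      rw [Bool.eq_iff_iff, hE, hE, ← hA g hg.1 f i, hfix]
    change (List.rec _ _ l : ℕ → ℕ) _ = (List.rec _ _ l : ℕ → ℕ) _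
    rw [e]
    exact ih (fun r h => hl r (List.mem_cons_of_mem _ h)) _

theorem batch_spec (hA : ∀ g ∈ A, ∀ x y, E (g x) (g y) ↔ E x y) {bits m order pos new : ℕ}
    {rows : List (ℕ × ℕ)} (hr : RowsSpec E rows) (hf : rowsFixed rows m = true)
    (hb : batchOK N bits rows m order pos new = true) : fixer A m ≤ fixer A (Nat.lor m new) := by
  intro g hg
  refine ⟨hg.1, fun v hv => ?_⟩
  change Nat.testBit (m ||| new) v = true at hv
  rw [Nat.testBit_or, Bool.or_eq_true] at hv
  rcases hv with hv | hv
  · exact hg.2 v hv
  by_cases hvm : Nat.testBit m v = true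
  · exact hg.2 v hvm
  simp only [batchOK, Bool.and_eq_true, List.all_eq_true, List.mem_range, decide_eq_true_eq] at hb
  obtain ⟨⟨hpos, hmono⟩, hnew⟩ := hb
  have hmono' : ∀ i j, i ≤ j → j < N →
      key rows m (unpack bits order i) ≤ key rows m (unpack bits order j) := by
    intro i j hij
    induction hij with
    | refl => intro _; exact le_rfl
    | @step j hij ih => intro hj; exact (ih (by omega)).trans (hmono j (by omega))
  have hv' := hnew v v.2
  simp only [hv, Bool.not_true, Bool.false_or, Bool.or_eq_true, Bool.and_eq_true, decide_eq_true_eq] at hv'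
  rcases hv' with hv' | ⟨hlo, hhi⟩
  · exact absurd hv' hvm
  have hk := key_invariant hA hr hf hg v
  set q := unpack bits pos v
  set q' := unpack bits pos (g v : ℕ)
  have hq' := hpos (g v) (g v).2
  have hq := hpos v v.2
  rcases Nat.lt_trichotomy q' q with hlt | heq | hgt
  · rcases hlo with h0 | h0
    · have := Nat.eq_of_beq_eq_true h0
      omega
    · have := hmono' q' (q - 1) (by omega) (by omega)
      rw [Nat.eq_of_beq_eq_true hq'.2] at this
      omega
  · refine Fin.ext ?_
    rw [← Nat.eq_of_beq_eq_true hq'.2]
    change unpack bits order q' = _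
    rw [heq]
    exact Nat.eq_of_beq_eq_true hq.2
  · rcases hhi with h0 | h0
    · have := Nat.eq_of_beq_eq_true h0
      have := hq'.1
      omega
    · have := hmono' (q + 1) q' (by omega) hq'.1
      rw [Nat.eq_of_beq_eq_true hq'.2] at this
      omega

theorem fixer_pick (g : Equiv.Perm (Fin N)) (m : ℕ) (v : Fin N) :
    g ∈ fixer A (Nat.lor m (Nat.shiftLeft 1 v)) ↔ g ∈ fixer A m ∧ g v = v := by
  constructor
  · intro h
    refine ⟨⟨h.1, fun x hx => h.2 x ?_⟩, h.2 v ?_⟩
    · change Nat.testBit (m ||| 1 <<< (v : ℕ)) x = true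
      rw [Nat.testBit_or, hx, Bool.true_or]
    · change Nat.testBit (m ||| 1 <<< (v : ℕ)) v = true
      rw [Nat.testBit_or, Nat.one_shiftLeft, Nat.testBit_two_pow]
      simp
  · rintro ⟨h1, h2⟩
    refine ⟨h1.1, fun x hx => ?_⟩
    change Nat.testBit (m ||| 1 <<< (v : ℕ)) x = true at hx
    rw [Nat.testBit_or, Bool.or_eq_true, Nat.one_shiftLeft, Nat.testBit_two_pow, decide_eq_true_eq] at hx
    rcases hx with hx | hx
    · exact h1.2 x hx
    · rw [show x = v from Fin.ext hx.symm]; exact h2

/-- An element fixing the starting set and the base is trivial. -/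
theorem rigid_eq_one (hA : ∀ g ∈ A, ∀ x y, E (g x) (g y) ↔ E x y) {bits : ℕ} :
    ∀ (ss : List Step) (m : ℕ), rigidOK N bits ss m = true → RowsSpec E (rigidRows ss) →
      ∀ g ∈ fixer A m, (∀ v : Fin N, (v : ℕ) ∈ rigidBase ss → g v = v) → g = 1
  | [], m, h, _, g, hg, _ => by
    refine Equiv.ext fun x => hg.2 x ?_
    change ((List.range N).all fun i => Nat.testBit m i) = true at h
    rw [List.all_eq_true] at h
    exact h x (List.mem_range.2 x.2)
  | .pick rows v n :: ss, m, h, hr, g, hg, hb => by
    change (_ && _ && _ && rigidOK N bits ss _) = true at h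
    simp only [Bool.and_eq_true, decide_eq_true_eq] at h
    refine rigid_eq_one hA ss _ h.2 (fun r hr' => hr r (List.mem_append_right _ hr')) g ?_
      fun w hw => hb w (List.mem_cons_of_mem _ hw)
    exact (fixer_pick g m ⟨v, h.1.1.2⟩).2 ⟨hg, hb _ (List.mem_cons_self ..)⟩
  | .batch rows order pos new :: ss, m, h, hr, g, hg, hb => by
    change (_ && _ && rigidOK N bits ss _) = true at h
    simp only [Bool.and_eq_true] at h
    exact rigid_eq_one hA ss _ h.2 (fun r hr' => hr r (List.mem_append_right _ hr')) g
      (batch_spec hA (fun r hr' => hr r (List.mem_append_left _ hr')) h.1.1 h.1.2 hg) hb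

/-- The certified bound on the automorphisms fixing the starting set. -/
theorem rigid_card (hA : ∀ g ∈ A, ∀ x y, E (g x) (g y) ↔ E x y) {bits : ℕ} :
    ∀ (ss : List Step) (m : ℕ), rigidOK N bits ss m = true → RowsSpec E (rigidRows ss) →
      Nat.card (fixer A m) ≤ rigidBound ss
  | [], m, h, hr => by
    have : fixer A m = ⊥ := by
      rw [Subgroup.eq_bot_iff_forall]
      exact fun g hg => rigid_eq_one hA [] m h hr g hg (by simp [rigidBase])
    rw [this, Subgroup.card_bot]
    exact le_refl _
  | .pick rows v n :: ss, m, h, hr => by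
    classical
    change (_ && _ && _ && rigidOK N bits ss _) = true at h
    simp only [Bool.and_eq_true, decide_eq_true_eq] at h
    obtain ⟨⟨⟨hf, hv⟩, hn⟩, hrest⟩ := h
    have hr1 : RowsSpec E rows := fun r hr' => hr r (List.mem_append_left _ hr')
    set x : Fin N := ⟨v, hv⟩
    have hos : (orbit (fixer A m) x).ncard * Nat.card (stabilizer (fixer A m) x) = Nat.card (fixer A m) := by
      rw [← Nat.card_coe_set_eq, Nat.card_congr (orbitEquivQuotientStabilizer (fixer A m) x)]
      exact (Subgroup.card_eq_card_quotient_mul_card_subgroup _).symm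
    have horb : (orbit (fixer A m) x).ncard ≤ n := by
      refine le_trans ?_ hn
      rw [List.countP_eq_length_filter, ← List.toFinset_card_of_nodup (List.nodup_range.filter _),
        ← Set.ncard_image_of_injective _ Fin.val_injective, ← Set.ncard_coe_finset]
      refine Set.ncard_le_ncard ?_
      rintro _ ⟨_, ⟨g, rfl⟩, rfl⟩
      simp only [List.coe_toFinset, Set.mem_ofPred_eq, List.mem_filter, List.mem_range]
      refine ⟨Fin.isLt _, ?_⟩
      change Nat.beq (key rows m ((g : Equiv.Perm (Fin N)) x : ℕ)) (key rows m v) = true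
      rw [key_invariant hA hr1 hf g.2 x]
      exact Nat.beq_refl _
    have hst : Nat.card (stabilizer (fixer A m) x) = Nat.card (fixer A (Nat.lor m (Nat.shiftLeft 1 v))) :=
      Nat.card_congr
        { toFun := fun s => ⟨s.1.1, (fixer_pick _ m x).2 ⟨s.1.2, s.2⟩⟩
          invFun := fun s => ⟨⟨s.1, ((fixer_pick _ m x).1 s.2).1⟩, ((fixer_pick _ m x).1 s.2).2⟩
          left_inv := fun _ => rfl
          right_inv := fun _ => rfl }
    rw [← hos, hst]
    exact Nat.mul_le_mul horb (rigid_card hA ss _ hrest fun r hr' => hr r (List.mem_append_right _ hr'))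
  | .batch rows order pos new :: ss, m, h, hr => by
    change (_ && _ && rigidOK N bits ss _) = true at h
    simp only [Bool.and_eq_true] at h
    refine le_trans (Subgroup.card_le_of_le ?_)
      (rigid_card hA ss _ h.2 fun r hr' => hr r (List.mem_append_right _ hr'))
    exact batch_spec hA (fun r hr' => hr r (List.mem_append_left _ hr')) h.1.1 h.1.2

end CfsgLib.RankThreeRecog
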