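import Cfsg.Agent.Lib.RankThreeRecog.Rigid
import Cfsg.Agent.Lib.SporRecognition.CosetCert.Basic

/-!
An extra step for the rigidity certificates: a point may be classified by the number of its neighbours in a class
of points with a given signature.
-/

set_option autoImplicit false
set_option linter.style.haveILetI false

namespace CfsgLib.RankThreeRecog

open MulAction
open CfsgLib.SporRecognition.CosetCert (allBelow allBelow_spec)

variable {N : ℕ} {E : Fin N → Fin N → Prop} {A : Subgroup (Equiv.Perm (Fin N))}

/-- Fixing one more point costs at most the number of candidates, for any invariant classification. -/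
theorem fixer_pick_card (K : ℕ → ℕ) {m v n : ℕ} (hv : v < N)
    (hK : ∀ g ∈ fixer A m, ∀ i : Fin N, K ((g i : Fin N) : ℕ) = K (i : ℕ))
    (hn : (List.range N).countP (fun i => Nat.beq (K i) (K v)) ≤ n) :
    Nat.card (fixer A m) ≤ n * Nat.card (fixer A (Nat.lor m (Nat.shiftLeft 1 v))) := by
  classical
  set x : Fin N := ⟨v, hv⟩
  have hos : (orbit (fixer A m) x).ncard * Nat.card (stabilizer (fixer A m) x) = Nat.card (fixer A m) := by
    rw [← Nat.card_coe_set_eq, Nat.card_congr (orbitEquivQuotientStabilizer (fixer A m) x)]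
    exact (Subgroup.card_eq_card_quotient_mul_card_subgroup _).symm
  have horb : (orbit (fixer A m) x).ncard ≤ n := by
    refine le_trans ?_ hn
    rw [List.countP_eq_length_filter, ← List.toFinset_card_of_nodup (List.nodup_range.filter _),
      ← Set.ncard_image_of_injective _ Fin.val_injective, ← Set.ncard_coe_finset]
    refine Set.ncard_le_ncard ?_
    rintro _ ⟨_, ⟨g, rfl⟩, rfl⟩
    simp only [List.coe_toFinset, Set.mem_ofPred_eq, List.mem_filter, List.mem_range]
    refine ⟨Fin.isLt _, ?_⟩
    change Nat.beq (K ((g : Equiv.Perm (Fin N)) x : ℕ)) (K v) = true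
    rw [hK g g.2 x]
    exact Nat.beq_refl _
  have hst : Nat.card (stabilizer (fixer A m) x) = Nat.card (fixer A (Nat.lor m (Nat.shiftLeft 1 v))) :=
    Nat.card_congr
      { toFun := fun s => ⟨s.1.1, (fixer_pick _ m x).2 ⟨s.1.2, s.2⟩⟩
        invFun := fun s => ⟨⟨s.1, ((fixer_pick _ m x).1 s.2).1⟩, ((fixer_pick _ m x).1 s.2).2⟩
        left_inv := fun _ => rfl
        right_inv := fun _ => rfl }
  rw [← hos, hst]
  exact Nat.mul_le_mul_right _ horb

/-- One index of a sorting: the permutation tables invert each other, and the keys increase. -/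
noncomputable def orderStep (N : ℕ) (K P O : ℕ → ℕ) (i : ℕ) : Bool :=
  Nat.blt (P i) N && Nat.beq (O (P i)) i &&
    (bif Nat.blt (Nat.add i 1) N then Nat.ble (K (O i)) (K (O (Nat.add i 1))) else true)

/-- A new point is alone with its key. -/
noncomputable def singleAt (N : ℕ) (K P O : ℕ → ℕ) (m new v : ℕ) : Bool :=
  bif Nat.testBit new v then
    (bif Nat.testBit m v then true else
      (bif Nat.beq (P v) 0 then true else Nat.blt (K (O (Nat.sub (P v) 1))) (K v)) &&
      (bif Nat.beq (Nat.add (P v) 1) N then true else Nat.blt (K v) (K (O (Nat.add (P v) 1)))))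
  else true

/-- Points alone with their value of an invariant classification are fixed. -/
theorem fixer_batch (K P O : ℕ → ℕ) {d m new : ℕ}
    (hK : ∀ g ∈ fixer A m, ∀ i : Fin N, K ((g i : Fin N) : ℕ) = K (i : ℕ))
    (hs : allBelow d N (orderStep N K P O) = true)
    (hn : allBelow d N (singleAt N K P O m new) = true) : fixer A m ≤ fixer A (Nat.lor m new) := by
  intro g hg
  refine ⟨hg.1, fun v hv => ?_⟩
  change Nat.testBit (m ||| new) v = true at hv
  rw [Nat.testBit_or, Bool.or_eq_true] at hv
  rcases hv with hv | hv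
  · exact hg.2 v hv
  by_cases hvm : Nat.testBit m v = true
  · exact hg.2 v hvm
  have hpos : ∀ i < N, P i < N ∧ O (P i) = i := by
    intro i hi
    have h := allBelow_spec hs i hi
    simp only [orderStep, Bool.and_eq_true, Nat.blt_eq, Nat.beq_eq] at h
    exact h.1
  have hmono : ∀ i j, i ≤ j → j < N → K (O i) ≤ K (O j) := by
    intro i j hij
    induction hij with
    | refl => intro _; exact le_rfl
    | @step j hij ih =>
      intro hj
      refine (ih (by omega)).trans ?_
      have h := allBelow_spec hs j (by omega)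
      simp only [orderStep, Bool.and_eq_true] at h
      have h2 := h.2
      rw [show Nat.blt (Nat.add j 1) N = true from Nat.blt_eq.mpr hj, cond_true, Nat.ble_eq] at h2
      exact h2
  have hv' := allBelow_spec hn v v.2
  rw [singleAt, hv, Bool.eq_false_iff.2 hvm] at hv'
  simp only [cond_true, cond_false, Bool.and_eq_true] at hv'
  obtain ⟨hlo, hhi⟩ := hv'
  have hk := hK g hg v
  obtain ⟨hq, hOq⟩ := hpos v v.2
  obtain ⟨hq', hOq'⟩ := hpos (g v) (g v).2
  rcases Nat.lt_trichotomy (P (g v : ℕ)) (P v) with hlt | heq | hgt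
  · have hne : Nat.beq (P v) 0 = false := by
      rw [Bool.eq_false_iff, Ne, Nat.beq_eq]; omega
    rw [hne, cond_false, Nat.blt_eq] at hlo
    have := hmono (P (g v : ℕ)) (P v - 1) (by omega) (by omega)
    rw [hOq'] at this
    change K (O (P v - 1)) < K v at hlo
    omega
  · exact Fin.ext (by rw [← hOq', heq, hOq])
  · have hne : Nat.beq (Nat.add (P v) 1) N = false := by
      rw [Bool.eq_false_iff, Ne, Nat.beq_eq, Nat.add_eq]; omega
    rw [hne, cond_false, Nat.blt_eq] at hhi
    have := hmono (P v + 1) (P (g v : ℕ)) (by omega) hq'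
    rw [hOq'] at this
    change K v < K (O (P v + 1)) at hhi
    omega

/-- The number of the rows of a list containing a point. -/
noncomputable def nbrCount (ws : List (ℕ × ℕ)) (i : ℕ) : ℕ :=
  (List.rec (fun acc => acc)
    (fun r _ ih acc => ih (bif Nat.testBit r.2 i then Nat.add acc 1 else acc)) ws : ℕ → ℕ) 0

theorem nbrCount_eq (ws : List (ℕ × ℕ)) (i : ℕ) :
    nbrCount ws i = ws.countP (fun r => Nat.testBit r.2 i) := by
  suffices h : ∀ (l : List (ℕ × ℕ)) (acc : ℕ), (List.rec (fun acc => acc)
      (fun r _ ih acc => ih (bif Nat.testBit r.2 i then Nat.add acc 1 else acc)) l : ℕ → ℕ) acc =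
      acc + l.countP (fun r => Nat.testBit r.2 i) by
    simpa [nbrCount] using h ws 0
  intro l
  induction l with
  | nil => intro acc; simp
  | cons r l ih =>
    intro acc
    change (List.rec _ _ l : ℕ → ℕ) _ = _
    refine (ih _).trans ?_
    rw [List.countP_cons]
    cases Nat.testBit r.2 i <;> simp <;> omega

/-- The classification by signature and, in the class of `kv`, the number of neighbours in the class of `ws`. -/
noncomputable def countKey (rows ws : List (ℕ × ℕ)) (m kv i : ℕ) : ℕ :=
  bif Nat.beq (key rows m i) kv then Nat.add (nbrCount ws i) 1 else 0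

/-- The list `ws` consists of the rows of the class with signature `kW`, in increasing order. -/
noncomputable def classRows (N : ℕ) (rows ws : List (ℕ × ℕ)) (m kW : ℕ) : Bool :=
  (List.range N).filter (fun i => Nat.beq (key rows m i) kW) == ws.map Prod.fst

theorem countKey_invariant (hA : ∀ g ∈ A, ∀ x y, E (g x) (g y) ↔ E x y) {rows ws : List (ℕ × ℕ)}
    {m kW : ℕ} (hr : RowsSpec E rows) (hw : RowsSpec E ws) (hf : rowsFixed rows m = true)
    (hc : classRows N rows ws m kW = true) (kv : ℕ) {g : Equiv.Perm (Fin N)} (hg : g ∈ fixer A m)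
    (i : Fin N) : countKey rows ws m kv (g i) = countKey rows ws m kv i := by
  classical
  have hcl : (List.range N).filter (fun j => Nat.beq (key rows m j) kW) = ws.map Prod.fst := by
    simpa [classRows] using hc
  have hcount : ∀ x : Fin N, nbrCount ws x =
      (Finset.univ.filter fun f : Fin N => key rows m f = kW ∧ E f x).card := by
    intro x
    have hnd : (ws.map Prod.fst).Nodup := hcl ▸ List.nodup_range.filter _
    have hnd' : ws.Nodup := List.Nodup.of_map _ hnd
    rw [nbrCount_eq, List.countP_eq_length_filter, ← List.length_map (f := Prod.fst),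
      ← List.toFinset_card_of_nodup ((List.filter_sublist.map Prod.fst).nodup hnd),
      ← Finset.card_map ⟨Fin.val, Fin.val_injective⟩]
    congr 1
    ext j
    simp only [List.mem_toFinset, List.mem_map, List.mem_filter, Finset.mem_map, Finset.mem_filter,
      Finset.mem_univ, true_and, Function.Embedding.coeFn_mk]
    constructor
    · rintro ⟨r, ⟨hr', ht⟩, rfl⟩
      obtain ⟨f, hf', hE⟩ := hw r hr'
      have hmem : r.1 ∈ ws.map Prod.fst := List.mem_map.2 ⟨r, hr', rfl⟩
      rw [← hcl, List.mem_filter] at hmem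
      exact ⟨f, ⟨by rw [hf']; exact Nat.eq_of_beq_eq_true hmem.2, (hE x).1 ht⟩, hf'⟩
    · rintro ⟨f, ⟨hk, hfx⟩, rfl⟩
      have hmem : (f : ℕ) ∈ ws.map Prod.fst := by
        rw [← hcl, List.mem_filter, hk]
        exact ⟨List.mem_range.2 f.2, Nat.beq_refl _⟩
      obtain ⟨r, hr', he⟩ := List.mem_map.1 hmem
      obtain ⟨f', hf', hE⟩ := hw r hr'
      obtain rfl : f' = f := Fin.ext (hf'.trans he)
      exact ⟨r, ⟨hr', (hE x).2 hfx⟩, he⟩
  have hk := key_invariant hA hr hf hg i
  unfold countKey
  rw [hk]
  congr 2
  rw [hcount, hcount]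
  refine Finset.card_bij' (fun f _ => g⁻¹ f) (fun f _ => g f) ?_ ?_ ?_ ?_
  · intro f hf'
    simp only [Finset.mem_filter, Finset.mem_univ, true_and] at hf' ⊢
    obtain ⟨h1, h2⟩ := hf'
    rw [← key_invariant hA hr hf hg (g⁻¹ f), ← hA g hg.1 (g⁻¹ f) i]
    simp only [Equiv.Perm.inv_def, Equiv.apply_symm_apply]
    exact ⟨h1, h2⟩
  · intro f hf'
    simp only [Finset.mem_filter, Finset.mem_univ, true_and] at hf' ⊢
    exact ⟨by rw [key_invariant hA hr hf hg]; exact hf'.1, (hA g hg.1 f i).2 hf'.2⟩
  · intro f _; simp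
  · intro f _; simp

end CfsgLib.RankThreeRecog
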